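import Cfsg.Agent.H1.Product
import Cfsg.Agent.H1.Hall

/-! Permutable subgroups, intersections of Hall complements. -/

set_option autoImplicit false

namespace Cfsg.Agent.H1

open Subgroup Pointwise

variable {G : Type*} [Group G]

/-- If `A B = B A` as sets then this set is the join of `A` and `B`. -/
theorem coe_sup_of_permutable {A B : Subgroup G} (h : (A : Set G) * B = B * A) :
    ((A ⊔ B : Subgroup G) : Set G) = A * B := by
  let S : Subgroup G :=
    { carrier := (A : Set G) * B
      one_mem' := ⟨1, A.one_mem, 1, B.one_mem, mul_one 1⟩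
      mul_mem' := by
        rintro _ _ ⟨a, ha, b, hb, rfl⟩ ⟨c, hc, d, hd, rfl⟩
        obtain ⟨e, he, f, hf, hef⟩ : b * c ∈ (A : Set G) * B := h ▸ Set.mul_mem_mul hb hc
        refine ⟨a * e, A.mul_mem ha he, f * d, B.mul_mem hf hd, ?_⟩
        have hef' : e * f = b * c := hef
        calc a * e * (f * d) = a * (e * f) * d := by group
          _ = _ := by rw [hef']; group
      inv_mem' := by
        rintro _ ⟨a, ha, b, hb, rfl⟩
        rw [h, mul_inv_rev]
        exact Set.mul_mem_mul (B.inv_mem hb) (A.inv_mem ha) }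
  apply le_antisymm
  · exact (sup_le (fun a ha => ⟨a, ha, 1, B.one_mem, mul_one a⟩)
      (fun b hb => ⟨1, A.one_mem, b, hb, one_mul b⟩) : A ⊔ B ≤ S)
  · rintro _ ⟨a, ha, b, hb, rfl⟩
    exact (A ⊔ B).mul_mem (mem_sup_left ha) (mem_sup_right hb)

/-- If `K = A B` inside `G`, expressed in the subgroup `K`. -/
theorem coe_eq_mul_iff {A B K : Subgroup G} (hA : A ≤ K) (hB : B ≤ K) :
    (K : Set G) = A * B ↔ ∀ g : K, ∃ x ∈ A.subgroupOf K, ∃ y ∈ B.subgroupOf K, g = x * y := by
  constructor
  · intro h g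
    obtain ⟨a, ha, b, hb, hab⟩ : (g : G) ∈ (A : Set G) * B := h ▸ g.2
    exact ⟨⟨a, hA ha⟩, ha, ⟨b, hB hb⟩, hb, Subtype.ext hab.symm⟩
  · intro h
    apply le_antisymm
    · intro g hg
      obtain ⟨a, ha, b, hb, hab⟩ := h ⟨g, hg⟩
      exact ⟨a, ha, b, hb, (congrArg Subtype.val hab).symm⟩
    · rintro _ ⟨a, ha, b, hb, rfl⟩
      exact K.mul_mem (hA ha) (hB hb)

theorem card_sup_dvd_of_permutable [Finite G] {A B : Subgroup G} (h : (A : Set G) * B = B * A) :
    Nat.card (A ⊔ B : Subgroup G) ∣ Nat.card A * Nat.card B := by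
  have h1 := (mul_eq_iff_card _ _).mp
    ((coe_eq_mul_iff le_sup_left le_sup_right).mp (coe_sup_of_permutable h))
  rw [Cfsg.Agent.H2.card_subgroupOf_of_le le_sup_left,
    Cfsg.Agent.H2.card_subgroupOf_of_le le_sup_right] at h1
  exact Dvd.intro_left _ h1.symm

theorem permutable_sup {A B C : Subgroup G} (h : (A : Set G) * B = B * A)
    (hA : (A : Set G) * C = C * A) (hB : (B : Set G) * C = C * B) :
    ((A ⊔ B : Subgroup G) : Set G) * C = C * (A ⊔ B : Subgroup G) := by
  rw [coe_sup_of_permutable h, mul_assoc, hB, ← mul_assoc, hA, mul_assoc]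

/-- The join of finitely many pairwise permuting subgroups has order dividing the product. -/
theorem card_biSup_dvd_of_permutable [Finite G] {ι : Type*} (S : ι → Subgroup G)
    (hS : ∀ i j, (S i : Set G) * S j = S j * S i) (T : Finset ι) :
    (∀ j, ((⨆ i ∈ T, S i : Subgroup G) : Set G) * S j = S j * (⨆ i ∈ T, S i : Subgroup G)) ∧
      Nat.card (⨆ i ∈ T, S i : Subgroup G) ∣ ∏ i ∈ T, Nat.card (S i) := by
  classical
  induction T using Finset.induction_on with
  | empty => simp
  | insert i T hi ih =>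
    rw [Finset.iSup_insert, Finset.prod_insert hi]
    exact ⟨fun j => permutable_sup (ih.1 i).symm (hS i j) (ih.1 j),
      (card_sup_dvd_of_permutable (ih.1 i).symm).trans (mul_dvd_mul_left _ ih.2)⟩

/-- The index of a finite intersection of subgroups with `H q` of `q`-power index. -/
theorem piNum_index_biInf [Finite G] (H : ℕ → Subgroup G) (T : Finset ℕ)
    (hH : ∀ q ∈ T, PiNum {q} (H q).index) : PiNum (T : Set ℕ) (⨅ q ∈ T, H q).index := by
  classical
  induction T using Finset.induction_on with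
  | empty =>
    intro p hp hd
    simp at hd
    exact absurd hd hp.ne_one
  | insert q T hq ih =>
    have h1 := ih fun r hr => hH r (Finset.mem_insert_of_mem hr)
    have h2 := hH q (Finset.mem_insert_self q T)
    rw [Finset.iInf_insert, index_inf_of_coprime _ _ (PiNum.coprime h2 fun p hp hd h3 =>
      hq (h3 ▸ h1 p hp hd))]
    refine PiNum.mul (fun p hp hd => ?_) (fun p hp hd => ?_)
    · rw [h2 p hp hd]; simp
    · exact Finset.mem_coe.mpr (Finset.mem_insert_of_mem (h1 p hp hd))

/-- Intersecting Hall `q'`-subgroups over the primes outside `π` gives a Hall `π`-subgroup. -/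
theorem hall_biInf [Finite G] (H : ℕ → Subgroup G) (hH : ∀ q, Hall {q}ᶜ (H q)) (π : Set ℕ)
    [DecidablePred (· ∉ π)] :
    Hall π (⨅ q ∈ (Nat.card G).primeFactors.filter (· ∉ π), H q) := by
  constructor
  · intro p hp hd
    by_contra h
    have h1 : p ∈ (Nat.card G).primeFactors.filter (· ∉ π) := Finset.mem_filter.mpr
      ⟨Nat.mem_primeFactors.mpr ⟨hp, hd.trans (card_subgroup_dvd_card _), Nat.card_pos.ne'⟩, h⟩
    exact (hH p).1 p hp (hd.trans (card_dvd_of_le (biInf_le _ h1))) rfl
  · intro p hp hd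
    have := piNum_index_biInf H _ (fun q _ r hr h1 => not_not.mp ((hH q).2 r hr h1)) p hp hd
    exact (Finset.mem_filter.mp this).2

end Cfsg.Agent.H1
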